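import Cfsg.Agent.UGL.Dbl
import Cfsg.Agent.Char.Virtual

/-!
Indices of parabolic subgroups of `GL_n(q)`; degrees, orthogonality and irreducibility of the
partition-indexed characters.
-/

set_option autoImplicit false

namespace Cfsg.Agent.UGL

open Finset Matrix Cfsg.Agent.Char
open scoped MatrixGroups

/-- `q`-factorial -/
def QF (q r : ℕ) : ℕ := ∏ j ∈ range r, ∑ l ∈ range (j + 1), q ^ l

theorem QF_pos {q : ℕ} (r : ℕ) : 0 < QF q r :=
  prod_pos fun j _ => by rw [sum_range_succ']; simp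

variable {F : Type*} [Field F] [Fintype F] {n m : ℕ}

theorem card_GL (ι : Type*) [Fintype ι] [DecidableEq ι] : Nat.card (GL ι F) =
    Fintype.card F ^ (∑ i ∈ range (Fintype.card ι), i) * (Fintype.card F - 1) ^ Fintype.card ι *
      QF (Fintype.card F) (Fintype.card ι) := by
  rw [Nat.card_congr (Units.mapEquiv (reindexAlgEquiv F F (Fintype.equivFin ι)).toMulEquiv).toEquiv,
    card_GL_field, QF, ← prod_range_reflect, ← prod_pow_eq_pow_sum, pow_eq_prod_const (_ - 1), ← prod_mul_distrib,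
    ← prod_mul_distrib, Fin.prod_univ_eq_prod_range (fun i => Fintype.card F ^ Fintype.card ι - Fintype.card F ^ i)]
  refine prod_congr rfl fun i hi => ?_
  obtain ⟨k, hk⟩ := Nat.exists_eq_add_of_lt (mem_range.1 hi)
  obtain ⟨r, hr⟩ := Nat.exists_eq_add_one_of_ne_zero (Fintype.card_ne_zero (α := F))
  rw [hk, hr, show i + k + 1 - 1 - i = k by omega, add_assoc i, pow_add, ← geom_sum_mul_add r (k + 1), mul_add,
    mul_one, Nat.add_sub_cancel, Nat.add_sub_cancel]
  ring

theorem card_par (H : Subgroup (GL (Fin n) F)) (a : Fin n → Fin m) (hH : ∀ g, g ∈ H ↔ g.1.BlockTriangular a) :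
    Nat.card H = (∏ i, Nat.card (GL {c // a c = i} F)) *
      Fintype.card F ^ #{p : Fin n × Fin n | a p.1 < a p.2} := by
  rw [← Nat.card_pi, ← Fintype.card_subtype, ← Fintype.card_fun, ← Nat.card_eq_fintype_card, ← Nat.card_prod]
  refine Nat.card_congr (Equiv.ofBijective (fun g => (fun i => GeneralLinearGroup.mkOfDetNeZero
    (g.1.1.toSquareBlock a i) (prod_ne_zero_iff.1 (((hH _).1 g.2).det_fintype ▸ g.1.det_ne_zero) i (mem_univ _)),
    fun p => g.1.1 p.1.1 p.1.2)) ⟨fun g g' e => ?_, fun ⟨D, U⟩ => ?_⟩)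
  · ext i j
    rcases lt_trichotomy (a i) (a j) with h | h | h
    · exact congrFun (congrArg Prod.snd e) ⟨(i, j), h⟩
    · exact congrArg (fun x => (x.1 (a j)).1 ⟨i, h⟩ ⟨j, rfl⟩) e
    · rw [(hH _).1 g.2 h, (hH _).1 g'.2 h]
  let M : Matrix (Fin n) (Fin n) F := of fun i j => if h : a i = a j then (D (a j)).1 ⟨i, h⟩ ⟨j, rfl⟩ else
    if h : a i < a j then U ⟨(i, j), h⟩ else 0
  have h1 : M.BlockTriangular a := fun i j h => by simp [M, h.ne', h.not_gt]
  have h2 (k) : M.toSquareBlock a k = D k := by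
    ext ⟨i, hi⟩ ⟨j, rfl⟩
    simp [M, toSquareBlock_def, hi]
  refine ⟨⟨GeneralLinearGroup.mkOfDetNeZero M ?_, (hH _).2 h1⟩, Prod.ext (funext fun k => Units.ext (h2 k))
    (funext fun p => ?_)⟩
  · rw [h1.det_fintype]
    exact prod_ne_zero_iff.2 fun k _ => h2 k ▸ (D k).det_ne_zero
  · simp [M, p.2, p.2.ne]

theorem sum_range_id_two (k : ℕ) : 2 * ∑ i ∈ range k, i + k = k * k := by
  induction k with
  | zero => rfl
  | succ k ih => rw [sum_range_succ]; nlinarith

theorem index_mul {μ : Fin n → ℕ} (h : ∑ i, μ i = n) :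
    Nat.card (GL (Fin n) F ⧸ parabolicGL n F μ) * ∏ i, QF (Fintype.card F) (μ i) = QF (Fintype.card F) n := by
  have h1 := (parabolicGL n F μ).card_eq_card_quotient_mul_card_subgroup
  rw [card_par _ (lab h) fun _ => Iff.rfl] at h1
  simp only [card_GL, Fintype.card_subtype, card_lab h, Fintype.card_fin, prod_mul_distrib, prod_pow_eq_pow_sum,
    h] at h1
  have h2 : #{p : Fin n × Fin n | lab h p.1 < lab h p.2} = #{p : Fin n × Fin n | lab h p.2 < lab h p.1} :=
    card_equiv (Equiv.prodComm _ _) (by simp)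
  have h3 : #{p : Fin n × Fin n | lab h p.1 = lab h p.2} = ∑ i, μ i * μ i := by
    rw [card_eq_sum_card_fiberwise (f := fun p => lab h p.1) (t := univ) (by simp)]
    refine sum_congr rfl fun i _ => ?_
    rw [← card_lab h, ← card_product]
    congr 1
    ext p
    simp only [mem_filter, mem_univ, true_and, mem_product]
    exact ⟨fun e => ⟨e.2, e.1 ▸ e.2⟩, fun e => ⟨e.1.trans e.2.symm, e.1⟩⟩
  have h4 : #{p : Fin n × Fin n | lab h p.1 < lab h p.2} + #{p : Fin n × Fin n | lab h p.2 < lab h p.1} +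
      #{p : Fin n × Fin n | lab h p.1 = lab h p.2} = ∑ p : Fin n × Fin n, 1 := by
    simp only [card_filter, ← sum_add_distrib, Fin.ext_iff, Fin.lt_def]
    exact sum_congr rfl fun c _ => by split_ifs <;> omega
  have h5 : ∑ i ∈ range n, i = ∑ i, ∑ j ∈ range (μ i), j + #{p : Fin n × Fin n | lab h p.1 < lab h p.2} := by
    have := sum_range_id_two n
    simp only [h3, ← sum_range_id_two, sum_add_distrib, ← mul_sum, h, sum_const, card_univ, Fintype.card_prod,
      Fintype.card_fin, smul_eq_mul, mul_one] at h4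
    omega
  have := Fintype.one_lt_card (α := F)
  have : 0 < Fintype.card F ^ (∑ i ∈ range n, i) * (Fintype.card F - 1) ^ n :=
    mul_pos (pow_pos (by omega) _) (pow_pos (by omega) _)
  refine Nat.eq_of_mul_eq_mul_left this ?_
  rw [h1, h5]; ring

theorem sum_sub {ν : Fin n → ℕ} (h : ∑ i, ν i = n) {κ : Equiv.Perm (Fin n)} (hκ : ∀ i, (κ i).val ≤ ν i + i.val) :
    ∑ i, (ν i + i.val - κ i) = n := by
  rw [sum_tsub_distrib _ fun i _ => hκ i, sum_add_distrib, h, κ.sum_comp univ Fin.val (by simp),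
    Nat.add_sub_cancel]

theorem QF_mul (q l j : ℕ) : (∏ k ∈ range j, (((∑ i ∈ range l, q ^ i : ℕ) : ℂ) - (∑ i ∈ range k, q ^ i : ℕ))) *
    QF q (l - j) = if j ≤ l then (q : ℂ) ^ (∑ i ∈ range j, i) * QF q l else 0 := by
  split_ifs with h
  · induction j with
    | zero => simp
    | succ j ih =>
      obtain ⟨k, rfl⟩ := Nat.exists_eq_add_of_le h
      rw [prod_range_succ, sum_range_succ, pow_add, mul_right_comm (_ ^ _ : ℂ), ← ih (by omega),
        show j + 1 + k - j = k + 1 by omega, Nat.add_sub_cancel_left, QF, QF, prod_range_succ,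
        show j + 1 + k = j + (k + 1) by omega, sum_range_add]
      simp only [pow_add, ← mul_sum]
      push_cast; ring
  · rw [prod_eq_zero (mem_range.2 (not_le.1 h)) (sub_self _), zero_mul]

theorem sum_tri (n : ℕ) : ∑ j ∈ range n, ∑ i ∈ range j, i = n * (n - 1) * (n - 2) / 6 := by
  refine Nat.eq_div_of_mul_eq_right (by norm_num) ?_
  induction n with
  | zero => rfl
  | succ n ih =>
    have := sum_range_id_two n
    rw [sum_range_succ, mul_add, ih]
    rcases n with _ | _ | n <;> simp at * <;> nlinarith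

theorem deg_eq {ν : Fin n → ℕ} (h : ∑ i, ν i = n) :
    unipotentCharacterGL n F ν 1 * (Fintype.card F : ℂ) ^ (n * (n - 1) * (n - 2) / 6) *
      ∏ i, (QF (Fintype.card F) (ν i + i) : ℂ) = QF (Fintype.card F) n * ∏ i : Fin n, ∏ j ∈ Ioi i,
        (((∑ l ∈ range (ν j + j.val), Fintype.card F ^ l : ℕ) : ℂ) -
          ((∑ l ∈ range (ν i + i.val), Fintype.card F ^ l : ℕ) : ℂ)) := by
  rw [← det_vandermonde, det_eval_matrixOfPolynomials_eq_det_vandermonde _ (fun j : Fin n => ∏ k ∈ range j,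
    (Polynomial.X - Polynomial.C ((∑ i ∈ range k, Fintype.card F ^ i : ℕ) : ℂ)))
    (fun i => by rw [Polynomial.natDegree_finsetProd_X_sub_C_eq_card, card_range])
    (fun i => Polynomial.monic_prod_X_sub_C _ _), ← det_transpose, det_apply', mul_sum, unipotentCharacterGL,
    sum_mul, sum_mul]
  refine sum_congr rfl fun κ _ => ?_
  have h1 := prod_congr rfl fun (i : Fin n) (_ : i ∈ univ) => QF_mul (Fintype.card F) (ν i + i) (κ i)
  rw [prod_mul_distrib, prod_ite_zero, prod_mul_distrib, prod_pow_eq_pow_sum,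
    κ.sum_comp univ (fun j => ∑ i ∈ range j.val, i) (by simp),
    Fin.sum_univ_eq_sum_range (fun j => ∑ i ∈ range j, i), sum_tri] at h1
  simp only [transpose_apply, of_apply, Polynomial.eval_prod, Polynomial.eval_sub, Polynomial.eval_X,
    Polynomial.eval_C, mem_univ, forall_true_left] at h1 ⊢
  split_ifs at h1 ⊢ with e
  · rw [mul_assoc, ← h1, ← index_mul (F := F) (sum_sub h e), fixedPointCharacter, MulAction.fixedBy_one_eq_univ,
      Nat.card_univ]
    push_cast; ring
  · rw [(mul_eq_zero.1 h1).resolve_right (prod_ne_zero_iff.2 fun i _ => Nat.cast_ne_zero.2 (QF_pos _).ne')]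
    simp

theorem strictMono_add {ν : Fin n → ℕ} (h : Monotone ν) : StrictMono fun i : Fin n => ν i + i.val :=
  fun _ _ e => add_lt_add_of_le_of_lt (h e.le) e

/-- the alternating sum built from a family of functions -/
noncomputable def altSum {G : Type*} (π : (Fin n → ℕ) → G → ℂ) (ν : Fin n → ℕ) : G → ℂ := fun g =>
  ∑ κ : Equiv.Perm (Fin n), if ∀ i : Fin n, (κ i).val ≤ ν i + i.val then
    ((Equiv.Perm.sign κ : ℤ) : ℂ) * π (fun i => ν i + i.val - (κ i).val) g else 0

theorem altSum_gen {G : Type*} [Group G] [Finite G] (H : (Fin n → ℕ) → Subgroup G) (ν : Fin n → ℕ) :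
    IsGeneralizedCharacter G (altSum (fun α => fixedPointCharacter (H α)) ν) := by
  have := isGenChar_sum univ (θ := fun (κ : Equiv.Perm (Fin n)) => if ∀ i : Fin n, (κ i).val ≤ ν i + i.val then
    ((Equiv.Perm.sign κ : ℤ) : ℂ) • fixedPointCharacter (H fun i => ν i + i.val - (κ i).val) else 0) fun κ _ => by
      split_ifs
      exacts [isGenChar_intCast_smul _ (isChar_isGenChar (isChar_perm _)), isGenChar_zero]
  convert this using 1
  ext g
  simp [altSum, ite_apply]

theorem altSum_inner {G : Type*} [Group G] [Fintype G] (H : (Fin n → ℕ) → Subgroup G)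
    (hH : ∀ α β, ∑ i, α i = n → ∑ i, β i = n → (Nat.card G : ℂ)⁻¹ * ∑ g, fixedPointCharacter (H α) g *
      fixedPointCharacter (H β) g = Nat.card (Tab α β)) {ν ν' : Fin n → ℕ} (h1 : Monotone ν) (h2 : ∑ i, ν i = n)
    (h3 : Monotone ν') (h4 : ∑ i, ν' i = n) : classInner (altSum (fun α => fixedPointCharacter (H α)) ν)
      (altSum (fun α => fixedPointCharacter (H α)) ν') = if ν = ν' then 1 else 0 := by
  have := congrArg (Int.cast : ℤ → ℂ) (ortho (strictMono_add h1) (strictMono_add h3))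
  simp only [funext_iff, add_left_inj] at this
  push_cast at this
  simp only [funext_iff]
  rw [← this, classInner]
  simp only [altSum, map_sum, sum_mul_sum]
  rw [sum_comm, mul_sum]
  refine sum_congr rfl fun κ _ => ?_
  rw [sum_comm, mul_sum]
  refine sum_congr rfl fun κ' _ => ?_
  split_ifs with e1 e2 e3 e4 e5
  · rw [← hH _ _ (sum_sub h2 e1) (sum_sub h4 e2), mul_left_comm _ (Nat.card G : ℂ)⁻¹, mul_sum, mul_sum, mul_sum]
    refine sum_congr rfl fun g _ => ?_
    simp only [fixedPointCharacter, map_mul, map_intCast, map_natCast]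
    ring
  all_goals simp_all

theorem inner_uni [DecidableEq F] {ν ν' : Fin n → ℕ} (h1 : Monotone ν) (h2 : ∑ i, ν i = n)
    (h3 : Monotone ν') (h4 : ∑ i, ν' i = n) :
    classInner (unipotentCharacterGL n F ν) (unipotentCharacterGL n F ν') = if ν = ν' then 1 else 0 :=
  altSum_inner (parabolicGL n F) (fun _ _ => inner_GL) h1 h2 h3 h4

theorem isIrr_uni {ν : Fin n → ℕ} (h1 : Monotone ν) (h2 : ∑ i, ν i = n) :
    IsIrrCharacter (GL (Fin n) F) (unipotentCharacterGL n F ν) := by
  classical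
  have h3 := altSum_gen (parabolicGL n F) ν
  refine isIrr_of_isGenChar_norm_one h3 (by simpa using inner_uni (F := F) h1 h2 h1 h2) ?_
  obtain ⟨d, hd⟩ := isGenChar_degree h3
  have h4 := deg_eq (F := F) h2
  rw [show unipotentCharacterGL n F ν 1 = d from hd] at h4 ⊢
  have h5 : 0 ≤ d * (Fintype.card F : ℤ) ^ (n * (n - 1) * (n - 2) / 6) *
      ∏ i, (QF (Fintype.card F) (ν i + i) : ℤ) := by
    norm_cast at h4
    push_cast at h4
    rw [h4]
    refine mul_nonneg (by positivity) (prod_nonneg fun i _ => prod_nonneg fun j hj => ?_)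
    rw [Int.subNatNat_eq_coe, sub_nonneg, Nat.cast_le]
    exact sum_le_sum_of_subset (range_mono (strictMono_add h1 (mem_Ioi.1 hj)).le)
  have := Fintype.card_pos (α := F)
  simpa using nonneg_of_mul_nonneg_left (nonneg_of_mul_nonneg_left h5
    (prod_pos fun i _ => Nat.cast_pos.2 (QF_pos _))) (by positivity)

end Cfsg.Agent.UGL
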