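import Cfsg.Agent.UGL.St2
import Cfsg.Agent.UGL.Deg

/-! Values of the Steinberg character of `GL_n(q)` at semisimple elements. -/

set_option autoImplicit false
set_option linter.unusedSectionVars false

namespace Cfsg.Agent.UGL.St
open Finset Matrix Module Polynomial MulAction
open scoped _root_.Classical Pointwise MatrixGroups

theorem fix_eq {G X : Type*} [Group G] [MulAction G X] {H : Subgroup G} (a : X) (hH : H = stabilizer G a) (x : G) :
    Nat.card (fixedBy (G ⧸ H) x) = Nat.card {b : X // b ∈ orbit G a ∧ x • b = b} := by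
  subst hH
  refine Nat.card_eq_of_bijective (fun c => ⟨ofQuotientStabilizer G a c.1, ofQuotientStabilizer_mem_orbit G a _,
    by rw [← ofQuotientStabilizer_smul, c.2]⟩) ⟨fun c c' e => Subtype.ext
      (injective_ofQuotientStabilizer G a (congrArg Subtype.val e)), ?_⟩
  rintro ⟨_, ⟨g, rfl⟩, h⟩
  exact ⟨⟨(g : G ⧸ _), injective_ofQuotientStabilizer G a (by rw [ofQuotientStabilizer_smul]; exact h)⟩, rfl⟩

variable {F : Type*} [Field F] [Fintype F] [DecidableEq F] {n : ℕ}

local notation "V" => Fin n → F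
local notation "G" => GL (Fin n) F

theorem mem_smul {g : G} {U : Submodule F V} {v : V} : v ∈ g • U ↔ (g⁻¹).1 *ᵥ v ∈ U := by
  rw [Units.smul_def, Submodule.mem_smul_pointwise_iff_exists]
  constructor
  · rintro ⟨u, hu, rfl⟩
    change (g⁻¹).1 *ᵥ (g.1 *ᵥ u) ∈ U
    rwa [mulVec_mulVec, Units.inv_mul, one_mulVec]
  · exact fun h => ⟨_, h, show g.1 *ᵥ ((g⁻¹).1 *ᵥ v) = v by rw [mulVec_mulVec, Units.mul_inv, one_mulVec]⟩

theorem finrank_smul (g : G) (U : Submodule F V) : finrank F (g • U : Submodule F V) = finrank F U :=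
  LinearEquiv.finrank_map_eq (DistribMulAction.toLinearEquiv F V g) U

theorem smul_eq_of_le {g : G} {U W : Submodule F V} (h : ∀ v ∈ U, g.1 *ᵥ v ∈ W) (h' : finrank F U = finrank F W) :
    g • U = W :=
  Submodule.eq_of_le_of_finrank_eq (fun v hv => by
    simpa [mulVec_mulVec] using h _ (mem_smul.1 hv)) ((finrank_smul g U).trans h')

variable {μ : Fin n → ℕ} (h : ∑ i, μ i = n)

variable (F) in
/-- the standard flag -/
def W0 (j : Fin (n + 1)) : Submodule F V where
  carrier := {v | ∀ c, j.val ≤ lab h c → v c = 0}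
  add_mem' ha hb c hc := by simp [ha c hc, hb c hc]
  zero_mem' _ _ := rfl
  smul_mem' a v hv c hc := by simp [hv c hc]

theorem finrank_W0 (j : Fin (n + 1)) : finrank F (W0 F h j) = ∑ k with k.val < j.val, μ k := by
  have h1 := card_vanish (F := F) (fun c => (lab h c).val < j.val)
  have h2 : #{c | (lab h c).val < j.val} = ∑ k with k.val < j.val, μ k := by
    simp only [lab, label_lt_iff h]
    rw [Fin.card_filter_val_lt, min_eq_right]
    exact (sum_le_sum_of_subset (filter_subset _ _)).trans h.le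
  simp only [not_lt] at h1
  refine Nat.pow_right_injective (Fintype.one_lt_card (α := F)) ?_
  simp only
  rw [← h2, ← h1, ← Nat.card_eq_fintype_card, ← Module.natCard_eq_pow_finrank]
  rfl

theorem stab_eq : parabolicGL n F μ = stabilizer G (W0 F h) := by
  ext g
  rw [mem_stabilizer_iff, funext_iff]
  refine ⟨fun hg j => smul_eq_of_le (fun v hv => tri_vanish (b := lab h) hg hv) rfl, fun hg c d e => ?_⟩
  have h1 : (Pi.single d 1 : V) ∈ W0 F h (lab h d).succ := fun c hc =>
    Pi.single_eq_of_ne (by rintro rfl; simp at hc) _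
  have h2 : g.1 *ᵥ (Pi.single d 1 : V) ∈ g • W0 F h (lab h d).succ := mem_smul.2 (by
    rwa [mulVec_mulVec, Units.inv_mul, one_mulVec])
  rw [show g • W0 F h (lab h d).succ = W0 F h (lab h d).succ from hg _] at h2
  simpa using h2 c e

/-- flags of a given type -/
def Fl (μ : Fin n → ℕ) (W : Fin (n + 1) → Submodule F V) : Prop := (W 0 = ⊥ ∧ W (Fin.last n) = ⊤) ∧
  ∀ i : Fin n, W i.castSucc ≤ W i.succ ∧ finrank F (W i.succ) = finrank F (W i.castSucc) + μ i

theorem sum_step (μ : Fin n → ℕ) (i : Fin n) :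
    ∑ k with k.val < i.val + 1, μ k = ∑ k with k.val < i.val, μ k + μ i := by
  have e2 : ∑ k : Fin n with k.val < i.val + 1, μ k = ∑ k : Fin n with k.val < i.val, μ k + ∑ k with k = i, μ k := by
    simp only [sum_filter, ← sum_add_distrib, Fin.ext_iff]
    exact sum_congr rfl fun c _ => by split_ifs <;> omega
  simpa [filter_eq'] using e2

theorem fl_W0 : Fl μ (W0 F h) := by
  refine ⟨⟨eq_bot_iff.2 fun v hv => funext fun c => hv c (Nat.zero_le _), eq_top_iff.2 fun v _ c hc =>
    absurd (lab h c).2 (not_lt.2 hc)⟩, fun i => ⟨fun v hv c hc => hv c (Nat.le_of_succ_le hc), ?_⟩⟩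
  rw [finrank_W0, finrank_W0]
  exact sum_step μ i

theorem mem_orbit {W : Fin (n + 1) → Submodule F V} : W ∈ orbit G (W0 F h) ↔ Fl μ W := by
  constructor
  · rintro ⟨g, rfl⟩
    obtain ⟨⟨h1, h2⟩, h3⟩ := fl_W0 (F := F) h
    refine ⟨⟨?_, ?_⟩, fun i => ⟨fun v hv => mem_smul.2 ((h3 i).1 (mem_smul.1 hv)), ?_⟩⟩
    · change g • W0 F h 0 = ⊥
      rw [h1, Units.smul_def, Submodule.smul_bot']
    · change g • W0 F h _ = ⊤
      rw [h2]; exact eq_top_iff.2 fun v _ => mem_smul.2 trivial
    · exact (finrank_smul _ _).trans ((h3 i).2.trans (congrArg (· + _) (finrank_smul _ _).symm))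
  rintro ⟨⟨h1, h2⟩, h3⟩
  have hm : Monotone W := Fin.monotone_iff_le_succ.2 fun i => (h3 i).1
  have hd : ∀ j, finrank F (W j) = ∑ k with k.val < j.val, μ k := fun j => by
    induction j using Fin.induction with
    | zero => simp [h1]
    | succ i ih => rw [(h3 i).2, ih]; exact (sum_step μ i).symm
  have key : ∀ m ≤ n, ∃ b : Fin m → V, LinearIndependent F b ∧ ∀ (c : Fin m) j, c.val < finrank F (W j) → b c ∈ W j := by
    intro m hm'
    induction m with
    | zero => exact ⟨Fin.elim0, linearIndependent_empty_type, fun c => c.elim0⟩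
    | succ m ih =>
      obtain ⟨b, hb, hb'⟩ := ih (Nat.le_of_succ_le hm')
      obtain ⟨j, hj, hj'⟩ := exists_min_image (univ.filter fun j => m < finrank F (W j)) id
        ⟨Fin.last n, mem_filter.2 ⟨mem_univ _, by rw [h2]; simpa using hm'⟩⟩
      obtain ⟨v, hv, hv'⟩ : ∃ v ∈ W j, v ∉ Submodule.span F (Set.range b) := by
        by_contra hh
        push Not at hh
        have := Submodule.finrank_mono (show W j ≤ _ from hh)
        rw [finrank_span_eq_card hb, Fintype.card_fin] at this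
        exact (mem_filter.1 hj).2.not_ge this
      refine ⟨Fin.snoc b v, linearIndependent_finSnoc.2 ⟨hb, hv'⟩, fun c i hc => ?_⟩
      induction c using Fin.lastCases with
      | last => simpa using hm (hj' i (mem_filter.2 ⟨mem_univ _, hc⟩)) hv
      | cast c => simpa using hb' c i hc
  obtain ⟨b, hb, hb'⟩ := key n le_rfl
  obtain ⟨g, hg⟩ : IsUnit (Matrix.of b)ᵀ := linearIndependent_cols_iff_isUnit.1 hb
  refine ⟨g, funext fun j => smul_eq_of_le (fun v hv => ?_) ((finrank_W0 h j).trans (hd j).symm)⟩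
  rw [hg, mulVec_eq_sum]
  refine Submodule.sum_mem _ fun c _ => ?_
  rcases le_or_gt j.val (lab h c) with e | e
  · simp [hv c e]
  · rw [op_smul_eq_smul]
    exact Submodule.smul_mem _ (v c) (hb' c j (hd j ▸ (label_lt_iff h c j).1 e))

/-- an invariant subspace from a submodule -/
noncomputable def rs (T : Module.End F V) (U : Submodule F[X] (AEval' T)) : Submodule F V :=
  (U.restrictScalars F).comap (AEval'.of T).toLinearMap

theorem mem_rs {T : Module.End F V} {U : Submodule F[X] (AEval' T)} {v : V} : v ∈ rs T U ↔ AEval'.of T v ∈ U :=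
  Iff.rfl

theorem rs_le {T : Module.End F V} {U W : Submodule F[X] (AEval' T)} : rs T U ≤ rs T W ↔ U ≤ W :=
  ⟨fun h v hv => by simpa using mem_rs.1 (h (mem_rs.2 (show AEval'.of T ((AEval'.of T).symm v) ∈ U by simpa))),
    fun h _ hv => h hv⟩

theorem rs_inj {T : Module.End F V} {U W : Submodule F[X] (AEval' T)} : rs T U = rs T W ↔ U = W := by
  simp only [le_antisymm_iff, rs_le]

theorem rs_bot (T : Module.End F V) : rs T ⊥ = ⊥ := by ext v; simp [mem_rs]
theorem rs_top (T : Module.End F V) : rs T ⊤ = ⊤ := by ext v; simp [mem_rs]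

theorem exists_rs {T : Module.End F V} {U : Submodule F V} (h : ∀ v ∈ U, T v ∈ U) : ∃ W, rs T W = U :=
  ⟨AEval.mapSubmodule F V T ⟨U, h⟩, by ext v; exact AEval.mem_mapSubmodule_apply F V T⟩

theorem rs_mono (T : Module.End F V) : StrictMono fun U : Submodule F[X] (AEval' T) => finrank F (rs T U) :=
  fun _ _ h => Submodule.finrank_lt_finrank_of_lt (lt_of_le_of_ne (rs_le.2 h.le) fun e => h.ne (rs_inj.1 e))

include h in
theorem fix_par (x : G) :
    fixedPointCharacter (parabolicGL n F μ) x =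
      Nat.card {W : Fin (n + 1) → Submodule F[X] (AEval' (mulVecLin x.1)) // (W 0 = ⊥ ∧ W (Fin.last n) = ⊤) ∧
      ∀ i : Fin n, W i.castSucc ≤ W i.succ ∧ finrank F (rs _ (W i.succ)) = finrank F (rs _ (W i.castSucc)) + μ i} := by
  rw [fixedPointCharacter, fix_eq _ (stab_eq h)]
  congr 1
  symm
  refine Nat.card_eq_of_bijective (fun W => ⟨fun j => rs _ (W.1 j), (mem_orbit h).2
    ⟨⟨(congrArg _ W.2.1.1).trans (rs_bot _), (congrArg _ W.2.1.2).trans (rs_top _)⟩, fun i => ⟨rs_le.2 (W.2.2 i).1, (W.2.2 i).2⟩⟩,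
    funext fun j => smul_eq_of_le (fun v hv => mem_rs.2 ?_) rfl⟩)
    ⟨fun W W' e => Subtype.ext (funext fun j => rs_inj.1 (congrFun (congrArg Subtype.val e) j)), ?_⟩
  · have := (W.1 j).smul_mem X (mem_rs.1 hv)
    rwa [AEval'.X_smul_of] at this
  · rintro ⟨W, h1, h2⟩
    obtain ⟨⟨h3, h4⟩, h5⟩ := (mem_orbit h).1 h1
    have : ∀ j, ∃ U, rs (mulVecLin x.1) U = W j := fun j => exists_rs fun v hv => by
      rw [← show x • W j = W j from congrFun h2 j]
      exact mem_smul.2 (by simpa [mulVec_mulVec] using hv)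
    choose U hU using this
    refine ⟨⟨U, ⟨rs_inj.1 ?_, rs_inj.1 ?_⟩, fun i => ⟨rs_le.1 ?_, ?_⟩⟩, Subtype.ext (funext hU)⟩
    · rw [hU, h3, rs_bot]
    · rw [hU, h4, rs_top]
    · rw [hU, hU]; exact (h5 i).1
    · rw [hU, hU]; exact (h5 i).2

theorem steinberg (p : ℕ) [Fact p.Prime] [CharP F p] (x : G) (hx : (orderOf x).Coprime p) :
    unipotentCharacterGL n F (fun _ => 1) x = psi (UniqueFactorizationMonoid.normalizedFactors x.1.charpoly) := by
  set T : Module.End F V := mulVecLin x.1 with hT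
  have : Finite (AEval' T) := Finite.of_equiv _ (AEval'.of T).toEquiv
  have : Fintype (Submodule F[X] (AEval' T)) := Fintype.ofFinite _
  have hs : T.IsSemisimple := Module.End.isSemisimple_of_squarefree_aeval_eq_zero
    (X_pow_sub_one_separable_iff.2 fun e => (Fact.out : p.Prime).not_dvd_one
      (hx.gcd_eq_one ▸ Nat.dvd_gcd ((CharP.cast_eq_zero_iff F p _).1 e) dvd_rfl)).squarefree (by
        rw [map_sub, map_pow, aeval_X, map_one, hT, ← toLin'_apply', ← toLin'_pow, ← Units.val_pow_eq_pow_val,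
          pow_orderOf_eq_one]
        simp [Module.End.one_eq_id])
  have hs' : IsSemisimpleModule F[X] (AEval' T) := hs
  set d := fun U : Submodule F[X] (AEval' T) => finrank F (rs T U) with hd
  have h1 := mob _ (AEval' T) _ rfl (mob_D (rs_mono T))
  have h2 : finrank F (AEval' T) = n := by rw [← (AEval'.of T).finrank_eq]; simp
  have h3 : ch F (AEval' T) = x.1.charpoly := by
    rw [← charpoly_mulVecLin, ← (AEval'.of T).charpoly_conj, ch]
    congr 1
    ext v
    obtain ⟨v, rfl⟩ := (AEval'.of T).surjective v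
    simp [LinearEquiv.conj_apply, AEval'.X_smul_of, hT]
  have h5 : finrank F (rs T ⊤) - finrank F (rs T ⊥) = n := by rw [rs_top, rs_bot]; simp
  rw [h5, h2, h3] at h1
  have h4 := mul_left_cancel₀ (pow_ne_zero _ (neg_ne_zero.2 one_ne_zero)) h1
  rw [← h4, unipotentCharacterGL, D_Hm]
  refine sum_congr rfl fun κ _ => ?_
  split_ifs with e
  · rw [fix_par (sum_sub (ν := fun _ => 1) (by simp) e) x]
  · rfl

end Cfsg.Agent.UGL.St
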