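import Mathlib

/-! The Moebius function of the submodule lattice of a finite semisimple `F[X]`-module. -/

set_option autoImplicit false
set_option linter.unusedSectionVars false

namespace Cfsg.Agent.UGL.St
open Polynomial UniqueFactorizationMonoid Finset Module
open scoped _root_.Classical

universe u

variable {F : Type*} [Field F] [Fintype F] [DecidableEq F]

section
variable (F) in
/-- the characteristic polynomial of `X` -/
noncomputable def ch (M : Type*) [AddCommGroup M] [Module F M] [Module F[X] M] [IsScalarTower F F[X] M]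
    [Finite M] : F[X] := (Algebra.lsmul F F M (X : F[X])).charpoly

/-- number of elements killed by `g` -/
noncomputable def kc (M : Type*) [AddCommGroup M] [Module F[X] M] (g : F[X]) : ℕ :=
  Nat.card {m : M // g • m = 0}

variable {M N : Type*} [AddCommGroup M] [Module F M] [Module F[X] M] [IsScalarTower F F[X] M] [Finite M]
  [AddCommGroup N] [Module F N] [Module F[X] N] [IsScalarTower F F[X] N] [Finite N]

theorem ch_monic : (ch F M).Monic := LinearMap.charpoly_monic _

theorem ch_natDegree : (ch F M).natDegree = finrank F M := LinearMap.charpoly_natDegree _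

theorem ch_congr (e : M ≃ₗ[F[X]] N) : ch F M = ch F N := by
  rw [ch, ← (e.restrictScalars F).charpoly_conj, ch]
  congr 1
  ext x
  simp [LinearEquiv.conj_apply]

theorem ch_prod : ch F (M × N) = ch F M * ch F N := by
  rw [ch, ch, ch, ← LinearMap.charpoly_prodMap]
  rfl

theorem ch_smul (m : M) : ch F M • m = 0 := by
  have h := LinearMap.aeval_self_charpoly (Algebra.lsmul F F M (X : F[X]))
  rw [aeval_algHom_apply, aeval_X_left_apply] at h
  exact congrArg (fun f : M →ₗ[F] M => f m) h

theorem kc_congr (e : M ≃ₗ[F[X]] N) (g : F[X]) : kc M g = kc N g :=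
  Nat.card_congr (e.toEquiv.subtypeEquiv fun m => by
    simp [← map_smul])

theorem kc_prod (g : F[X]) : kc (M × N) g = kc M g * kc N g := by
  rw [kc, kc, kc, ← Nat.card_prod]
  exact Nat.card_congr ((Equiv.subtypeEquivRight fun m => Prod.ext_iff).trans
    (Equiv.subtypeProdEquivProd (p := fun m : M => g • m = 0) (q := fun m : N => g • m = 0)))

theorem exists_quot [IsSimpleModule F[X] M] :
    Irreducible (ch F M) ∧ Nonempty (M ≃ₗ[F[X]] F[X] ⧸ Ideal.span {ch F M}) := by
  obtain ⟨I, hI, ⟨e⟩⟩ := isSimpleModule_iff_quot_maximal.1 ‹_›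
  obtain ⟨f, rfl⟩ := (IsPrincipalIdealRing.principal I).principal
  have h1 : f ∣ ch F M := by
    have := congrArg e (ch_smul (F := F) (e.symm (Submodule.Quotient.mk 1)))
    rw [map_smul, e.apply_symm_apply, map_zero, ← Submodule.Quotient.mk_smul, smul_eq_mul, mul_one,
      Submodule.Quotient.mk_eq_zero] at this
    exact Ideal.mem_span_singleton.1 this
  have h0 : f ≠ 0 := fun h => ch_monic.ne_zero (zero_dvd_iff.1 (h ▸ h1))
  have h2 : Irreducible f := ((Ideal.span_singleton_prime h0).1 hI.isPrime).irreducible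
  have h3 : (ch F M).natDegree = f.natDegree := by
    rw [ch_natDegree, (e.restrictScalars F).finrank_eq]
    exact finrank_quotient_span_eq_natDegree
  have h4 : Associated f (ch F M) := associated_of_dvd_of_natDegree_le h1 ch_monic.ne_zero h3.le
  exact ⟨h4.irreducible h2, ⟨e.trans (Submodule.quotEquivOfEq _ _ (Ideal.span_singleton_eq_span_singleton.2 h4))⟩⟩

theorem card_hom [IsSimpleModule F[X] M] : Nat.card (M →ₗ[F[X]] N) = kc N (ch F M) := by
  obtain ⟨-, ⟨e⟩⟩ := exists_quot (F := F) (M := M)
  rw [Nat.card_congr (e.arrowCongr (LinearEquiv.refl F[X] N)).toEquiv]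
  generalize ch F M = f
  refine Nat.card_congr
    { toFun := fun φ => ⟨φ (Submodule.Quotient.mk 1), by
        rw [← map_smul, ← Submodule.Quotient.mk_smul, smul_eq_mul, mul_one,
          (Submodule.Quotient.mk_eq_zero _).2 (Ideal.mem_span_singleton_self f), map_zero]⟩
      invFun := fun m => Submodule.liftQ _ (LinearMap.toSpanSingleton F[X] N m.1) (by
        rw [Ideal.span, Submodule.span_le]
        rintro _ rfl
        exact m.2)
      left_inv := fun φ => Submodule.linearMap_qext _ (LinearMap.ext_ring (by simp))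
      right_inv := fun m => Subtype.ext ((Submodule.liftQ_apply _ _ _).trans (by simp)) }

theorem kc_simple [IsSimpleModule F[X] M] {g : F[X]} (hg : Irreducible g) (hm : g.Monic) :
    kc M g = if g = ch F M then Fintype.card F ^ g.natDegree else 1 := by
  split_ifs with h
  · rw [kc, h, Nat.card_congr (Equiv.subtypeUnivEquiv ch_smul), ch_natDegree, Module.natCard_eq_pow_finrank (K := F),
      Nat.card_eq_fintype_card]
  · have h1 : IsCoprime g (ch F M) := hg.coprime_iff_not_dvd.2 fun e =>
      h (eq_of_monic_of_associated hm ch_monic (hg.associated_of_dvd exists_quot.1 e))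
    obtain ⟨a, b, hab⟩ := h1
    refine Nat.card_eq_one_iff_exists.2 ⟨⟨0, smul_zero _⟩, fun m => Subtype.ext ?_⟩
    rw [← one_smul F[X] m.1, ← hab, add_smul, mul_smul, mul_smul, m.2, ch_smul]
    simp

theorem ch_sub [Subsingleton M] : ch F M = 1 :=
  ch_monic.natDegree_eq_zero.1 (by rw [ch_natDegree, finrank_zero_of_subsingleton])

theorem exists_split [IsSemisimpleModule F[X] M] [Nontrivial M] :
    ∃ A C : Submodule F[X] M, IsSimpleModule F[X] A ∧ IsCompl A C ∧ Nat.card C < Nat.card M := by
  obtain ⟨A, hA⟩ := IsSemisimpleModule.exists_simple_submodule F[X] M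
  obtain ⟨C, hC⟩ := exists_isCompl A
  have := IsSimpleModule.nontrivial F[X] A
  obtain ⟨x, hx⟩ := exists_ne (0 : A)
  exact ⟨A, C, hA, hC, Finite.card_subtype_lt (x := x.1) fun h =>
    hx (Subtype.ext ((Submodule.disjoint_def.1 hC.disjoint) _ x.2 h))⟩

end

theorem nf_mul {f P : F[X]} (hf : Irreducible f) (hm : f.Monic) (hP : P ≠ 0) :
    normalizedFactors (f * P) = f ::ₘ normalizedFactors P := by
  rw [normalizedFactors_mul hf.ne_zero hP, normalizedFactors_irreducible hf, hm.normalize_eq_self,
    Multiset.singleton_add]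

theorem kc_eq {g : F[X]} (hg : Irreducible g) (hm : g.Monic) (n : ℕ) : ∀ (M : Type u) [AddCommGroup M] [Module F M]
    [Module F[X] M] [IsScalarTower F F[X] M] [Finite M] [IsSemisimpleModule F[X] M], Nat.card M = n →
    kc M g = Fintype.card F ^ (g.natDegree * (normalizedFactors (ch F M)).count g) := by
  induction n using Nat.strong_induction_on with | _ n ih
  intro M _ _ _ _ _ _ hn
  rcases subsingleton_or_nontrivial M with h | h
  · rw [ch_sub, normalizedFactors_one, Multiset.count_zero, mul_zero, pow_zero]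
    exact Nat.card_eq_one_iff_exists.2 ⟨⟨0, smul_zero _⟩, fun m => Subsingleton.elim _ _⟩
  obtain ⟨A, C, hA, hC, h1⟩ := exists_split (F := F) (M := M)
  rw [← kc_congr (Submodule.prodEquivOfIsCompl _ _ hC), ← ch_congr (Submodule.prodEquivOfIsCompl _ _ hC),
    kc_prod, ch_prod, nf_mul exists_quot.1 ch_monic ch_monic.ne_zero, ih _ (hn ▸ h1) C rfl, kc_simple hg hm]
  split_ifs with e
  · rw [← e, Multiset.count_cons_self, ← pow_add, mul_add, mul_one, add_comm]
  · rw [Multiset.count_cons_of_ne e, one_mul]

/-- the predicted value -/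
noncomputable def psi (s : Multiset F[X]) : ℂ :=
  ∏ f ∈ s.toFinset, (-1 : ℂ) ^ ((f.natDegree - 1) * s.count f) *
    (Fintype.card F : ℂ) ^ (f.natDegree * s.count f * (s.count f - 1) / 2)

theorem psi_cons (f : F[X]) (s : Multiset F[X]) : psi (f ::ₘ s) =
    (-1) ^ (f.natDegree - 1) * (Fintype.card F : ℂ) ^ (f.natDegree * s.count f) * psi s := by
  have h1 : psi s = ∏ g ∈ insert f s.toFinset, (-1 : ℂ) ^ ((g.natDegree - 1) * s.count g) *
      (Fintype.card F : ℂ) ^ (g.natDegree * s.count g * (s.count g - 1) / 2) :=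
    (prod_insert_of_eq_one_if_notMem fun h => by
      rw [Multiset.count_eq_zero_of_notMem (by simpa using h)]; simp).symm
  rw [h1, psi, Multiset.toFinset_cons, ← mul_prod_erase _ _ (mem_insert_self f _),
    ← mul_prod_erase _ _ (mem_insert_self f _), ← mul_assoc]
  congr 1
  · rw [Multiset.count_cons_self]
    generalize s.count f = m
    have : f.natDegree * (m + 1) * (m + 1 - 1) / 2 = f.natDegree * m + f.natDegree * m * (m - 1) / 2 := by
      rw [← Nat.mul_add_div (by norm_num : 2 > 0)]
      congr 1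
      rcases m with _ | m
      · simp
      · simp; ring
    rw [this]; ring
  · exact prod_congr rfl fun g hg => by rw [Multiset.count_cons_of_ne (ne_of_mem_erase hg)]

theorem weisner {L : Type*} [Lattice L] [OrderTop L] [Fintype L] {g : L → ℂ}
    (hg : ∀ U, ∑ W, (if U ≤ W then g W else 0) = if U = ⊤ then 1 else 0) {C : L} (hC : C ≠ ⊤) (Y : L)
    (hY : Y ≤ C) : ∑ W, (if W ⊓ C = Y then g W else 0) = 0 := by
  induction Y using WellFoundedGT.induction with | _ Y ih
  have h1 := hg Y
  rw [if_neg (ne_top_of_le_ne_top hC hY)] at h1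
  have h2 : ∑ W, (if Y ≤ W then g W else 0) = ∑ Z, if Y ≤ Z ∧ Z ≤ C then ∑ W, (if W ⊓ C = Z then g W else 0)
      else 0 := by
    simp only [← sum_filter]
    rw [← sum_fiberwise_of_maps_to (t := univ.filter fun Z => Y ≤ Z ∧ Z ≤ C) (g := fun W => W ⊓ C)
      fun W h => by simp_all]
    refine sum_congr rfl fun Z hZ => sum_congr ?_ fun _ _ => rfl
    ext W
    simp only [mem_filter, mem_univ, true_and] at hZ ⊢
    exact ⟨fun h => h.2, fun h => ⟨hZ.1.trans (h ▸ inf_le_left), h⟩⟩
  rw [h2, sum_eq_single Y (fun Z _ hZ => ?_) (by simp), if_pos ⟨le_rfl, hY⟩] at h1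
  · exact h1
  · split_ifs with h
    · exact ih Z (lt_of_le_of_ne h.1 hZ.symm) h.2
    · rfl

theorem mob (n : ℕ) : ∀ (M : Type u) [AddCommGroup M] [Module F M]
    [Module F[X] M] [IsScalarTower F F[X] M] [Finite M] [IsSemisimpleModule F[X] M]
    [Fintype (Submodule F[X] M)] (g : Submodule F[X] M → ℂ), Nat.card M = n →
    (∀ U, ∑ W, (if U ≤ W then g W else 0) = if U = ⊤ then 1 else 0) →
    g ⊥ = (-1) ^ finrank F M * psi (normalizedFactors (ch F M)) := by
  induction n using Nat.strong_induction_on with | _ n ih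
  intro M _ _ _ _ _ _ _ g hn hg
  rcases subsingleton_or_nontrivial M with h | h
  · have := hg ⊥
    rw [if_pos (Subsingleton.elim _ _), Fintype.sum_subsingleton _ ⊥, if_pos le_rfl] at this
    simp [this, ch_sub, psi, finrank_zero_of_subsingleton]
  obtain ⟨A, C, hA, hC, h1⟩ := exists_split (F := F) (M := M)
  have hc : IsCoatom C := isSimpleModule_iff_isCoatom.1
    (IsSimpleModule.congr (Submodule.quotientEquivOfIsCompl _ _ hC.symm))
  have h2 : ∀ W, IsCompl C W → g W = (-1) ^ finrank F C * psi (normalizedFactors (ch F C)) := fun W hW => by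
    have e := Submodule.quotientEquivOfIsCompl _ _ hW.symm
    have : Finite (M ⧸ W) := Finite.of_equiv _ e.toEquiv.symm
    have : Fintype (Submodule F[X] (M ⧸ W)) := Fintype.ofEquiv _ (Submodule.comapMkQRelIso W).toEquiv.symm
    have := ih _ (hn ▸ h1) (M ⧸ W) (fun U => g (Submodule.comapMkQRelIso W U).1) (Nat.card_congr e.toEquiv)
      fun U => by
        have h3 := hg (Submodule.comapMkQRelIso W U).1
        have h4 : ((Submodule.comapMkQRelIso W U).1 = ⊤) ↔ U = ⊤ := by
          rw [← (Submodule.comapMkQRelIso W).injective.eq_iff, map_top, Subtype.ext_iff]; rfl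
        rw [if_congr h4 rfl rfl] at h3
        rw [← h3, ← sum_filter, ← sum_filter]
        refine sum_bij (fun U _ => (Submodule.comapMkQRelIso W U).1) (fun Z hZ => ?_)
          (fun a _ b _ e => (Submodule.comapMkQRelIso W).injective (Subtype.ext e)) (fun Z hZ => ?_)
          fun _ _ => rfl
        · exact mem_filter.2 ⟨mem_univ _, (Submodule.comapMkQRelIso W).monotone (mem_filter.1 hZ).2⟩
        · have h5 := (mem_filter.1 hZ).2
          refine ⟨(Submodule.comapMkQRelIso W).symm ⟨Z, le_trans (Submodule.comapMkQRelIso W U).2 h5⟩,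
            mem_filter.2 ⟨mem_univ _, (Submodule.comapMkQRelIso W).le_symm_apply.2 h5⟩, by simp⟩
    rw [map_bot] at this
    rw [← ch_congr e, ← (e.restrictScalars F).finrank_eq]
    exact this
  have h3 := weisner hg hc.1 ⊥ bot_le
  have h4 : ∀ W, (if W ⊓ C = ⊥ then g W else 0) = (if W = ⊥ then g W else 0) +
      if IsCompl C W then (-1) ^ finrank F C * psi (normalizedFactors (ch F C)) else 0 := fun W => by
    by_cases e : W = ⊥
    · subst e
      rw [if_pos (bot_inf_eq _), if_pos rfl, if_neg fun e => hc.1 (eq_top_of_isCompl_bot e), add_zero]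
    rw [if_neg e, zero_add]
    by_cases e' : IsCompl C W
    · rw [if_pos e', if_pos e'.symm.inf_eq_bot, h2 W e']
    · rw [if_neg e', if_neg fun h => e' ⟨disjoint_iff.2 (inf_comm W C ▸ h), codisjoint_iff.2
        (hc.2 _ (left_lt_sup.2 fun h' => e (by rwa [inf_eq_left.2 h'] at h)))⟩]
  have h5 : #{W | IsCompl C W} = Fintype.card F ^ ((ch F A).natDegree *
      (normalizedFactors (ch F C)).count (ch F A)) := by
    rw [← kc_eq exists_quot.1 ch_monic _ C rfl, ← card_hom, ← Fintype.card_subtype, ← Nat.card_eq_fintype_card,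
      Nat.card_congr (Submodule.isComplEquivProj C)]
    exact Nat.card_congr
      { toFun := fun f => f.1.domRestrict A
        invFun := fun φ => ⟨LinearMap.ofIsCompl hC φ LinearMap.id, fun x => by simp⟩
        left_inv := fun f => Subtype.ext (LinearMap.ofIsCompl_eq hC (fun _ => rfl) fun x => (f.2 x).symm)
        right_inv := fun φ => by ext x; simp }
  rw [sum_congr rfl fun W _ => by convert h4 W, sum_add_distrib, sum_ite_eq', if_pos (mem_univ _), ← sum_filter,
    sum_const, h5, nsmul_eq_mul] at h3
  have e := Submodule.prodEquivOfIsCompl _ _ hC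
  rw [← ch_congr e, ← (e.restrictScalars F).finrank_eq, finrank_prod, ch_prod,
    nf_mul exists_quot.1 ch_monic ch_monic.ne_zero, psi_cons, ← ch_natDegree (M := A), eq_neg_of_add_eq_zero_left h3]
  obtain ⟨d, hd⟩ : ∃ d, (ch F A).natDegree = d + 1 :=
    ⟨_, (Nat.succ_pred_eq_of_pos (exists_quot (F := F) (M := A)).1.natDegree_pos).symm⟩
  rw [hd]
  have : ((-1 : ℂ) ^ d) ^ 2 = 1 := by rw [← pow_mul, mul_comm, pow_mul]; simp
  push_cast
  linear_combination ((-1) ^ finrank F C * (Fintype.card F : ℂ) ^ ((d + 1) *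
    (normalizedFactors (ch F C)).count (ch F A)) * psi (normalizedFactors (ch F C))) * this

end Cfsg.Agent.UGL.St
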