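import Cfsg.Agent.UGL.St1

/-! A non-commutative Hessenberg determinant and chains in a graded poset. -/

set_option autoImplicit false
set_option linter.unusedSectionVars false

namespace Cfsg.Agent.UGL.St
open Finset Equiv
open scoped _root_.Classical

section
variable {R : Type*} [Ring R] (H : ℕ → R)

/-- row-ordered determinant of the Hessenberg matrix with shifted first column -/
noncomputable def D (n k : ℕ) : R := ∑ κ : Perm (Fin n), if ∀ i, (κ i).val ≤ 1 + i.val then
  ((Perm.sign κ : ℤ) : R) * (List.ofFn fun i : Fin n =>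
    H ((if (κ i).val = 0 then k else 0) + (1 + i.val - (κ i).val))).prod else 0

theorem D_zero (k : ℕ) : D H 0 k = 1 := by simp [D]

theorem D_succ (h0 : H 0 = 1) (n k : ℕ) :
    D H (n + 1) k = H (k + 1) * D H n 0 - if n = 0 then 0 else D H n (k + 1) := by
  rw [D, ← Perm.decomposeFin.symm.sum_comp, Fintype.sum_prod_type, Fin.sum_univ_succ, sub_eq_add_neg]
  congr 1
  · rw [D, mul_sum]
    refine sum_congr rfl fun e _ => ?_
    simp only [Fin.forall_fin_succ, List.ofFn_succ, Perm.decomposeFin_symm_apply_zero,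
      Perm.decomposeFin_symm_apply_succ, Perm.decomposeFin.symm_sign, swap_self, refl_apply, Fin.val_succ,
      Fin.val_zero, if_true, one_mul, List.prod_cons, Nat.zero_le, true_and, ite_self]
    have h1 : ∀ i : Fin n, ((e i).val + 1 ≤ 1 + (i.val + 1)) ↔ (e i).val ≤ 1 + i.val := fun i => by omega
    have h2 : ∀ i : Fin n, (if (e i).val + 1 = 0 then k else 0) + (1 + (i.val + 1) - ((e i).val + 1)) =
      0 + (1 + i.val - (e i).val) := fun i => by rw [if_neg (by omega)]; omega
    simp only [h1, h2]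
    split_ifs
    · rw [← mul_assoc, ← mul_assoc, Int.cast_comm]
    · simp
  · rcases n with _ | n
    · simp
    rw [if_neg n.succ_ne_zero, Fin.sum_univ_succ, sum_eq_zero (s := univ) (f := fun p : Fin n => _)
      fun p _ => sum_eq_zero fun e _ => if_neg fun h => by
        have := h 0
        simp at this, add_zero, D, ← sum_neg_distrib]
    refine sum_congr rfl fun e _ => ?_
    have h0' : ∀ i : Fin (n + 1), (swap (0 : Fin (n + 2)) (Fin.succ 0) (e i).succ).val =
        if (e i).val = 0 then 0 else (e i).val + 1 := fun i => by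
      split_ifs with h
      · rw [show e i = 0 from Fin.ext h, swap_apply_right]; rfl
      · rw [swap_apply_of_ne_of_ne (Fin.succ_ne_zero _) fun e' => h (by
          rw [Fin.succ_inj] at e'; rw [e']; rfl)]; rfl
    rw [List.ofFn_succ]
    simp only [Fin.forall_fin_succ (n := n + 1), Perm.decomposeFin_symm_apply_zero,
      Perm.decomposeFin_symm_apply_succ, Perm.decomposeFin.symm_sign, h0', Fin.val_succ,
      Fin.val_zero, List.prod_cons, Fin.succ_ne_zero, if_false]
    have h1 : ∀ i : Fin (n + 1), ((if (e i).val = 0 then 0 else (e i).val + 1) ≤ 1 + (i.val + 1)) ↔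
      (e i).val ≤ 1 + i.val := fun i => by split_ifs <;> omega
    have h2 : ∀ i : Fin (n + 1), (if (if (e i).val = 0 then 0 else (e i).val + 1) = 0 then k else 0) +
        (1 + (i.val + 1) - (if (e i).val = 0 then 0 else (e i).val + 1)) =
      (if (e i).val = 0 then k + 1 else 0) + (1 + i.val - (e i).val) := fun i => by
        by_cases h : (e i).val = 0 <;> simp only [h, if_true, if_false, Nat.succ_ne_zero] <;> omega
    simp only [h1, h2]
    simp [h0]
    split_ifs <;> simp

theorem D_eq (h0 : H 0 = 1) (n k : ℕ) :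
    D H (n + 1) k = ∑ j ∈ range (n + 1), (-1) ^ j * (H (k + 1 + j) * D H (n - j) 0) := by
  induction n generalizing k with
  | zero => simp [D_succ H h0]
  | succ n ih =>
    rw [D_succ H h0, if_neg n.succ_ne_zero, ih (k + 1), sum_range_succ' _ (n + 1), sub_eq_neg_add, ← sum_neg_distrib]
    simp [pow_succ, add_assoc, add_comm 1, add_comm 2]

theorem D_rec (h0 : H 0 = 1) (n : ℕ) :
    ∑ j ∈ range (n + 2), (-1) ^ j * (H j * D H (n + 1 - j) 0) = 0 := by
  rw [sum_range_succ', Nat.sub_zero, D_eq H h0, h0, pow_zero, one_mul, one_mul, ← sum_add_distrib]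
  exact sum_eq_zero fun j _ => by simp [pow_succ, add_comm 1]

end

variable {L : Type*} [Fintype L]

theorem prod_apply (m : ℕ) (M : Fin m → Matrix L L ℂ) (a b : L) : (List.ofFn M).prod a b =
    ∑ W : Fin (m + 1) → L, if W 0 = a ∧ W (Fin.last m) = b then ∏ i, M i (W i.castSucc) (W i.succ) else 0 := by
  induction m generalizing a with
  | zero =>
    rw [← (Equiv.funUnique (Fin 1) L).symm.sum_comp]
    simp [Matrix.one_apply, ite_and, eq_comm]
  | succ m ih =>
    rw [List.ofFn_succ, List.prod_cons, Matrix.mul_apply, ← (Fin.consEquiv fun _ => L).sum_comp,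
      Fintype.sum_prod_type]
    simp only [ih, mul_sum]
    rw [sum_comm, sum_comm (γ := L)]
    refine sum_congr rfl fun W _ => ?_
    simp only [ite_and, mul_ite, mul_zero, sum_ite_eq, sum_ite_eq', mem_univ, if_true, Fin.consEquiv, coe_fn_mk,
      Fin.cons_zero, Fin.prod_univ_succ, ← Fin.succ_last, Fin.cons_succ, Fin.castSucc_zero, ← Fin.succ_castSucc]

variable [PartialOrder L] (d : L → ℕ)

/-- the step matrix -/
noncomputable def Hm (k : ℕ) : Matrix L L ℂ := Matrix.of fun U W => if U ≤ W ∧ d W = d U + k then 1 else 0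

theorem Hm_prod (m : ℕ) (μ : Fin m → ℕ) (a b : L) : (List.ofFn fun i => Hm d (μ i)).prod a b =
    Nat.card {W : Fin (m + 1) → L // (W 0 = a ∧ W (Fin.last m) = b) ∧
      ∀ i : Fin m, W i.castSucc ≤ W i.succ ∧ d (W i.succ) = d (W i.castSucc) + μ i} := by
  rw [prod_apply, Nat.card_eq_fintype_card, Fintype.card_subtype, card_filter]
  push_cast
  refine sum_congr rfl fun W _ => ?_
  simp only [Hm, Matrix.of_apply, prod_boole, mem_univ, true_imp_iff]
  split_ifs <;> simp_all

theorem D_Hm (n : ℕ) (a b : L) : D (Hm d) n 0 a b = ∑ κ : Perm (Fin n), if ∀ i, (κ i).val ≤ 1 + i.val then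
    ((Perm.sign κ : ℤ) : ℂ) * Nat.card {W : Fin (n + 1) → L // (W 0 = a ∧ W (Fin.last n) = b) ∧
      ∀ i : Fin n, W i.castSucc ≤ W i.succ ∧ d (W i.succ) = d (W i.castSucc) + (1 + i.val - (κ i).val)}
    else 0 := by
  rw [D, Matrix.sum_apply]
  refine sum_congr rfl fun κ _ => ?_
  split_ifs with e
  · rw [← zsmul_eq_mul, ← zsmul_eq_mul, Matrix.smul_apply, Hm_prod]
    simp only [ite_self, zero_add]
  · rfl

variable {d}

theorem Hm_zero (hd : StrictMono d) : Hm d 0 = 1 := by
  ext U W
  rw [Hm, Matrix.of_apply, Matrix.one_apply]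
  exact if_congr ⟨fun h => h.1.eq_of_not_lt fun e => (hd e).ne' h.2, fun h => by simp [h]⟩ rfl rfl

theorem mob_D [OrderTop L] (hd : StrictMono d) (U : L) :
    ∑ W, (if U ≤ W then (-1) ^ (d ⊤ - d W) * D (Hm d) (d ⊤ - d W) 0 W ⊤ else 0) = if U = ⊤ then 1 else 0 := by
  split_ifs with h
  · subst h
    simp [D_zero]
  obtain ⟨n, hn⟩ : ∃ n, d ⊤ = d U + (n + 1) := ⟨d ⊤ - d U - 1, by have := hd (Ne.lt_top h); omega⟩
  have h1 := congrArg (fun M : Matrix L L ℂ => (-1) ^ (n + 1) * M U ⊤) (D_rec (Hm d) (Hm_zero hd) n)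
  have h2 : ∀ (j : ℕ) (M : Matrix L L ℂ), ((-1) ^ j * M) U ⊤ = (-1) ^ j * M U ⊤ := fun j M => by
    rcases neg_one_pow_eq_or (Matrix L L ℂ) j with e | e <;> rcases Nat.even_or_odd j with e' | e' <;>
      simp [e'.neg_one_pow]
  simp only [Matrix.sum_apply, h2, Matrix.zero_apply, mul_zero] at h1
  simp only [Matrix.mul_apply, mul_sum] at h1
  rw [sum_comm] at h1
  refine Eq.trans (sum_congr rfl fun W _ => ?_) h1
  split_ifs with e
  · have h3 := hd.monotone e
    have h4 := hd.monotone (le_top (a := W))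
    rw [sum_eq_single (d W - d U) (fun j _ hj => by
      rw [Hm, Matrix.of_apply, if_neg (fun h => hj (by omega))]; simp) (fun h => by simp at h; omega),
      Hm, Matrix.of_apply, if_pos ⟨e, by omega⟩, one_mul, ← mul_assoc, ← pow_add,
      show n + 1 - (d W - d U) = d ⊤ - d W by omega,
      show n + 1 + (d W - d U) = d ⊤ - d W + 2 * (d W - d U) by omega, pow_add, pow_mul]
    simp
  · simp [Hm, e]

end Cfsg.Agent.UGL.St
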